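-- Team project OTSP (S5973), package [ORD] (helper53).
import Mathlib
import Cfsg.Agent.Lib.Helper99.OTSP.Defs

set_option autoImplicit false

namespace Cfsg.Agent.Lib.Helper53.OTSP

open Cfsg.Agent.Lib.Helper23.OHyp

/-- pure arithmetic: `i ∣ 2 e`, `¬ i ∣ e`, `1 ≤ i` give `i` even and `e % i = i / 2`. -/
theorem half_arith (i e : ℕ) (hi : 1 ≤ i) (h4 : i ∣ 2 * e) (h3 : ¬ i ∣ e) :
    Even i ∧ e % i = i / 2 := by
  obtain ⟨k, hk⟩ := h4
  rcases Nat.even_or_odd i with ⟨h, hh⟩ | hodd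
  · subst hh
    have he : e = h * k := by
      have : 2 * e = 2 * (h * k) := by rw [hk]; ring
      exact Nat.eq_of_mul_eq_mul_left (by norm_num) this
    rcases Nat.even_or_odd k with ⟨k', hk'⟩ | ⟨k', hk'⟩
    · exfalso
      apply h3
      refine ⟨k', ?_⟩
      rw [he, hk']
      ring
    · refine ⟨⟨h, rfl⟩, ?_⟩
      have he2 : e = h + (h + h) * k' := by
        rw [he, hk']
        ring
      have hlt : h < h + h := by omega
      rw [he2, Nat.add_mul_mod_self_left, Nat.mod_eq_of_lt hlt]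
      omega
  · exfalso
    rcases Nat.even_or_odd k with ⟨k', hk'⟩ | hkodd
    · apply h3
      refine ⟨k', ?_⟩
      have : 2 * e = 2 * (i * k') := by rw [hk, hk']; ring
      exact Nat.eq_of_mul_eq_mul_left (by norm_num) this
    · have h1 : Odd (i * k) := hodd.mul hkodd
      rw [← hk] at h1
      exact (Nat.not_odd_iff_even.mpr (even_two_mul e)) h1

/-- **[ORD]** -/
theorem pkgOrd : Cfsg.Agent.Lib.Helper99.OTSP.PkgOrd := by
  intro q r hr hr2 hrq
  haveI := Fact.mk hr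
  have ha : ((q : ℕ) : ZMod r) ≠ 0 := by
    intro h
    exact hrq ((ZMod.natCast_eq_zero_iff q r).mp h)
  have hpow : ((q : ℕ) : ZMod r) ^ (r - 1) = 1 := ZMod.pow_card_sub_one_eq_one ha
  have hi_dvd : ordI q r ∣ r - 1 := orderOf_dvd_of_pow_eq_one hpow
  have hr2' : 2 ≤ r := hr.two_le
  have hi_pos : 1 ≤ ordI q r := by
    have h : 0 < orderOf ((q : ℕ) : ZMod r) :=
      orderOf_pos_iff.mpr (isOfFinOrder_iff_pow_eq_one.mpr ⟨r - 1, by omega, hpow⟩)
    exact h
  have hq0 : 0 < q := Nat.pos_of_ne_zero (by rintro rfl; exact hrq (dvd_zero r))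
  refine ⟨hi_pos, hi_dvd, ?_, ?_⟩
  · intro e he
    apply orderOf_dvd_of_pow_eq_one
    have hq1 : 1 ≤ q ^ e := Nat.one_le_pow _ _ hq0
    have h1 : ((q ^ e - 1 : ℕ) : ZMod r) = 0 := (ZMod.natCast_eq_zero_iff _ _).mpr he
    rw [Nat.cast_sub hq1, Nat.cast_pow, Nat.cast_one, sub_eq_zero] at h1
    exact h1
  · intro e he
    have h1 : ((q ^ e + 1 : ℕ) : ZMod r) = 0 := (ZMod.natCast_eq_zero_iff _ _).mpr he
    rw [Nat.cast_add, Nat.cast_pow, Nat.cast_one] at h1
    have h2 : ((q : ℕ) : ZMod r) ^ e = -1 := eq_neg_of_add_eq_zero_left h1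
    have hne : (-1 : ZMod r) ≠ 1 := by
      haveI : Fact (2 < r) := ⟨lt_of_le_of_ne hr2' (Ne.symm hr2)⟩
      exact ZMod.neg_one_ne_one
    have h3 : ¬ ordI q r ∣ e := by
      intro hd
      have h := orderOf_dvd_iff_pow_eq_one.mp hd
      rw [h2] at h
      exact hne h
    have h4 : ordI q r ∣ 2 * e := by
      apply orderOf_dvd_of_pow_eq_one
      rw [mul_comm, pow_mul, h2]
      norm_num
    exact half_arith _ e hi_pos h4 h3

end Cfsg.Agent.Lib.Helper53.OTSP
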