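-- Team project OTSP (S5973), packages [PCNT] and [DVD] (helper53).
import Mathlib
import Cfsg.Agent.Lib.Helper99.OTSP.Defs
import Cfsg.Agent.Lib.Helper53.OTS.CountPM

set_option autoImplicit false

namespace Cfsg.Agent.Lib.Helper53.OTSP

open Module

universe u

/-- **[DVD]** -/
theorem pkgDvd : Cfsg.Agent.Lib.Helper99.OTSP.PkgDvd.{u} := by
  intro F _ _ d m r hr hmd hdvd
  have h1 := Cfsg.Agent.Lib.Helper53.OTS.card_ts_plus (F := F) d m hmd.le
  have h2 : r ∣ ∏ j ∈ Finset.range m,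
      ((Fintype.card F ^ (d - j) - 1) * (Fintype.card F ^ (d - j - 1) + 1)) := by
    rw [← h1]
    exact Dvd.dvd.mul_right hdvd _
  obtain ⟨j, hj, hj2⟩ := (Prime.dvd_finsetProd_iff hr.prime _).1 h2
  exact ⟨j, Finset.mem_range.1 hj, (hr.dvd_mul).1 hj2⟩

/-- **[PCNT]** -/
theorem pkgPCnt : Cfsg.Agent.Lib.Helper99.OTSP.PkgPCnt.{u} := by
  intro F _ _ p _ _ d m hmd hdvd
  have hp : p.Prime := Fact.out
  have hq : 2 ≤ Fintype.card F := Fintype.one_lt_card
  obtain ⟨j, hj, hj2⟩ := pkgDvd F d m p hp hmd hdvd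
  have hpq : p ∣ Fintype.card F := Cfsg.Agent.Lib.Helper40.Elusive.char_dvd_card p
  rcases hj2 with hj2 | hj2
  · have h2 : p ∣ Fintype.card F ^ (d - j) := dvd_pow hpq (by omega)
    have h3 : 1 ≤ Fintype.card F ^ (d - j) := Nat.one_le_pow _ _ (by omega)
    have h4 : p ∣ 1 := by
      have := Nat.dvd_sub h2 hj2
      rwa [Nat.sub_sub_self h3] at this
    exact hp.one_lt.ne' (Nat.dvd_one.1 h4)
  · have h2 : p ∣ Fintype.card F ^ (d - j - 1) := dvd_pow hpq (by omega)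
    have h4 : p ∣ 1 := by
      have := Nat.dvd_sub hj2 h2
      rwa [Nat.add_sub_cancel_left] at this
    exact hp.one_lt.ne' (Nat.dvd_one.1 h4)

end Cfsg.Agent.Lib.Helper53.OTSP
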