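-- Team project OTSP (S5973), packages [NUMOD1] and [NUMOD2] (helper53): arithmetic, `i` odd.
import Mathlib
import Cfsg.Agent.Lib.Helper99.OTSP.Defs

set_option autoImplicit false

namespace Cfsg.Agent.Lib.Helper53.OTSP

open Cfsg.Agent.Lib.Helper99.OTSP

/-- **[NUMOD1]** -/
theorem pkgNumOd1 : PkgNumOd1 := by
  intro i m d hi him hmd
  have h2 : (2 * d) % (2 * i) = 2 * (d % i) := Nat.mul_mod_mul_left 2 d i
  rw [h2]
  have hi0 : 0 < i := hi
  have hm := Nat.div_add_mod m i
  have hd := Nat.div_add_mod d i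
  have hmlt := Nat.mod_lt m hi0
  have hdlt := Nat.mod_lt d hi0
  constructor
  · intro h
    have hJ : 1 ≤ d / i := (Nat.le_div_iff_mul_le hi0).mpr (by omega)
    obtain ⟨s, hs, hs1, hs2⟩ := h (d / i) hJ (by omega)
    have h3 : (m - i * s) % i = m % i := Nat.sub_mul_mod hs1
    have h4 : (m - i * s) % i ≤ m - i * s := Nat.mod_le _ _
    omega
  · intro h j hj hij
    have hjJ : j ≤ d / i := (Nat.le_div_iff_mul_le hi0).mpr (by rw [mul_comm]; exact hij)
    have h5 : i * j ≤ i * (d / i) := Nat.mul_le_mul_left i hjJ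
    by_cases hc : m / i ≤ j
    · exact ⟨m / i, hc, by omega, by omega⟩
    · have h6 : i * j ≤ i * (m / i) := Nat.mul_le_mul_left i (by omega)
      exact ⟨j, le_refl j, by omega, by omega⟩

/-- **[NUMOD2]** -/
theorem pkgNumOd2 : PkgNumOd2 := by
  intro i m d e hi hm hmi hmd hde hed hie hall
  obtain ⟨k, rfl⟩ := hie
  have hk : 1 ≤ k := by
    rcases Nat.eq_zero_or_pos k with h | h
    · rw [h, Nat.mul_zero] at hde
      omega
    · exact h
  obtain ⟨s, hs, hs1, hs2⟩ := hall k hk hed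
  have hs0 : s = 0 := by
    by_contra h
    have h1 : i * 1 ≤ i * s := Nat.mul_le_mul_left i (by omega)
    omega
  rw [hs0, Nat.mul_zero, Nat.sub_zero] at hs2
  omega

end Cfsg.Agent.Lib.Helper53.OTSP
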