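-- Team project OTSP (S5973), package [ODD] (helper53): glue of PLUSQ + FIXODD + EXODD.
import Mathlib
import Cfsg.Agent.Lib.Helper99.OTSP.Defs
import Cfsg.Agent.Lib.Helper14.Isom

set_option autoImplicit false
open scoped MatrixGroups
open Matrix

namespace Cfsg.Agent.Lib.Helper53.OTSP

open Cfsg.Agent.Lib.Helper23.OHyp Cfsg.Agent.Lib.Helper99.OTSP

universe u

theorem movSp_one {F : Type u} [Field F] {ι : Type} [Fintype ι] [DecidableEq ι] :
    movSp (1 : Matrix ι ι F) = ⊥ := by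
  unfold movSp
  rw [Matrix.toLin'_one]
  have h : (LinearMap.id : (ι → F) →ₗ[F] (ι → F)) - 1 = 0 := by
    show (1 : Module.End F (ι → F)) - 1 = 0
    exact sub_self 1
  rw [h, LinearMap.range_zero]

/-- **[ODD]** -/
theorem pkgOdd_of (hP : PkgPlusQ.{u}) (hF : PkgFixOdd.{u}) (hE : PkgExOdd.{u}) : PkgOdd.{u} := by
  intro F _ _ d m r hr hr2 hrq hodd hd
  obtain ⟨hnd, hplus⟩ := hP F d
  have hcard : Fintype.card (Fin d ⊕ Fin d) = 2 * d := by
    simp only [Fintype.card_sum, Fintype.card_fin]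
    omega
  have hi1 : 1 ≤ ordI (Fintype.card F) r := hodd.pos
  have hstd : ∀ y : GL (Fin d ⊕ Fin d) F, y ∈ Cfsg.isometryGroup F (Cfsg.quadFormPlus d F) →
      y ^ r = 1 → StdQ (Cfsg.quadFormPlus d F) r
        (y : Matrix (Fin d ⊕ Fin d) (Fin d ⊕ Fin d) F) := by
    intro y hy hyr
    refine ⟨hnd, hr, hr2, hrq, ?_, (Cfsg.Agent.Lib.Helper14.mem_isometryGroup_iff _ y).mp hy⟩
    rw [← Units.val_pow_eq_pow_val, hyr]
    rfl
  constructor
  · intro h j hj hij
    obtain ⟨y, hy, hyr, hdim⟩ := hE F d r j hr hr2 hrq hodd hj hij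
    have hpos : 1 ≤ ordI (Fintype.card F) r * j := Nat.mul_pos hi1 hj
    have hne : y ≠ 1 := by
      rintro rfl
      have h0 : movSp (((1 : GL (Fin d ⊕ Fin d) F)) : Matrix (Fin d ⊕ Fin d) (Fin d ⊕ Fin d) F)
          = ⊥ := movSp_one
      rw [h0, finrank_bot] at hdim
      omega
    have hfix := h y hy hyr hne
    obtain ⟨j', hj'd, hj'1, hj'dim, hj'iff⟩ := hF F (Fin d ⊕ Fin d) (Cfsg.quadFormPlus d F) r
      (y : Matrix (Fin d ⊕ Fin d) (Fin d ⊕ Fin d) F) (hstd y hy hyr) hplus d hcard hodd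
    have hjj : j' = j := by
      have h1 : 2 * (ordI (Fintype.card F) r * j') = 2 * (ordI (Fintype.card F) r * j) :=
        hj'dim.symm.trans hdim
      exact Nat.eq_of_mul_eq_mul_left hi1 (by omega)
    subst hjj
    exact (hj'iff m).mp hfix
  · intro h y hy hyr hne
    obtain ⟨j, hjd, hj1, hjdim, hjiff⟩ := hF F (Fin d ⊕ Fin d) (Cfsg.quadFormPlus d F) r
      (y : Matrix (Fin d ⊕ Fin d) (Fin d ⊕ Fin d) F) (hstd y hy hyr) hplus d hcard hodd
    have hne' : (y : Matrix (Fin d ⊕ Fin d) (Fin d ⊕ Fin d) F) ≠ 1 := fun h' => hne (Units.ext h')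
    exact (hjiff m).mpr (h j (hj1 hne') hjd)

end Cfsg.Agent.Lib.Helper53.OTSP
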