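-- Team project OTSP (S5973), package [RED4] (helper53): reduction to isometries y with y^r = 1.
import Mathlib
import Cfsg.Agent.Lib.Helper99.OTSP.Defs2
import Cfsg.Agent.Lib.Helper70.OPar.Defs
import Cfsg.Agent.Lib.Helper14.Isom

set_option autoImplicit false
open scoped MatrixGroups
open Matrix

namespace Cfsg.Agent.Lib.Helper53.OTSP

open Cfsg.Agent.Lib.Helper23.OHyp Cfsg.Agent.Lib.Helper99.OTSP

universe u

/-- `z * z = 1` and `r` odd: `z ^ (r + 1) = 1`. -/
theorem pow_succ_of_sq {F : Type u} [Field F] (z : F) (hz : z * z = 1) (r : ℕ) (hr : Odd r) :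
    z ^ (r + 1) = 1 := by
  obtain ⟨k, rfl⟩ := hr
  have h : 2 * k + 1 + 1 = 2 * (k + 1) := by ring
  rw [h, pow_mul, pow_two, hz, one_pow]

/-- `z * z = 1`, `z ^ r = 1` and `r` odd: `z = 1`. -/
theorem eq_one_of_sq_of_pow {F : Type u} [Field F] (z : F) (hz : z * z = 1) (r : ℕ) (hr : Odd r)
    (hzr : z ^ r = 1) : z = 1 := by
  obtain ⟨k, rfl⟩ := hr
  rw [pow_succ, pow_mul, pow_two, hz, one_pow, one_mul] at hzr
  exact hzr

/-- **[RED4]** -/
theorem pkgRed4_of (hS : Cfsg.Agent.Lib.Helper70.OPar.PkgScal.{u}) (hP : PkgPlusQ.{u})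
    (hO : PkgOddOm4.{u}) : PkgRed4.{u} := by
  intro F _ _ d m r hr hr2 hd
  obtain ⟨hnd, -⟩ := hP F d
  haveI : Nonempty (Fin d ⊕ Fin d) := ⟨Sum.inl ⟨0, by omega⟩⟩
  have hrodd : Odd r := hr.odd_of_ne_two hr2
  constructor
  · intro h y hy hyr hne
    have hyO := hO F d hd y hy r hrodd hyr
    have hisom := (Cfsg.Agent.Lib.Helper14.mem_isometryGroup_iff _ y).mp hy
    refine h y hyO ⟨1, ?_⟩ ?_
    · rw [hyr, one_smul]
      rfl
    · intro z hz
      have hzz : z * z = 1 := hS F (Fin d ⊕ Fin d) (Cfsg.quadFormPlus d F) hnd z (by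
        intro v
        rw [← hz]
        exact hisom v)
      have hpow : (y : Matrix (Fin d ⊕ Fin d) (Fin d ⊕ Fin d) F) ^ r = 1 := by
        rw [← Units.val_pow_eq_pow_val, hyr]
        rfl
      rw [hz, smul_pow, one_pow] at hpow
      have hzr : z ^ r = 1 := by
        have h1 := congrFun (congrFun hpow (Sum.inl ⟨0, by omega⟩)) (Sum.inl ⟨0, by omega⟩)
        simpa using h1
      have hz1 : z = 1 := eq_one_of_sq_of_pow z hzz r hrodd hzr
      apply hne
      apply Units.ext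
      rw [hz, hz1, one_smul]
      rfl
  · intro h x hx hxr hns
    have hx' : x ∈ (Cfsg.Omega F (Cfsg.quadFormPlus d F)).map
        (Cfsg.isometryGroup F (Cfsg.quadFormPlus d F)).subtype := hx
    obtain ⟨g, -, hgx⟩ := Subgroup.mem_map.mp hx'
    have hxI : x ∈ Cfsg.isometryGroup F (Cfsg.quadFormPlus d F) := by
      rw [← hgx]
      exact g.2
    have hisom := (Cfsg.Agent.Lib.Helper14.mem_isometryGroup_iff _ x).mp hxI
    obtain ⟨z, hz⟩ := hxr
    rw [Units.val_pow_eq_pow_val] at hz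
    have hisomr : ∀ (k : ℕ) v, Cfsg.quadFormPlus d F
        (((x : Matrix (Fin d ⊕ Fin d) (Fin d ⊕ Fin d) F) ^ k) *ᵥ v) = Cfsg.quadFormPlus d F v := by
      intro k
      induction k with
      | zero => intro v; simp
      | succ k ih =>
        intro v
        rw [pow_succ, ← Matrix.mulVec_mulVec, ih, hisom]
    have hzz : z * z = 1 := hS F (Fin d ⊕ Fin d) (Cfsg.quadFormPlus d F) hnd z (by
      intro v
      rw [← hz]
      exact hisomr r v)
    -- the unit `z • 1`
    let Z : GL (Fin d ⊕ Fin d) F :=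
      ⟨z • 1, z • 1, by rw [smul_mul_smul_comm, hzz, one_mul, one_smul],
        by rw [smul_mul_smul_comm, hzz, one_mul, one_smul]⟩
    have hZx : ((Z * x : GL (Fin d ⊕ Fin d) F) : Matrix (Fin d ⊕ Fin d) (Fin d ⊕ Fin d) F) =
        z • (x : Matrix (Fin d ⊕ Fin d) (Fin d ⊕ Fin d) F) := by
      rw [Units.val_mul]
      show (z • (1 : Matrix (Fin d ⊕ Fin d) (Fin d ⊕ Fin d) F)) * _ = _
      rw [Matrix.smul_mul, one_mul]
    have hyI : Z * x ∈ Cfsg.isometryGroup F (Cfsg.quadFormPlus d F) := by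
      rw [Cfsg.Agent.Lib.Helper14.mem_isometryGroup_iff]
      intro v
      rw [hZx, Matrix.smul_mulVec, hnd.smul, hisom, pow_two, hzz, one_mul]
    have hyr : (Z * x) ^ r = 1 := by
      apply Units.ext
      rw [Units.val_pow_eq_pow_val, hZx, smul_pow, hz, smul_smul, ← pow_succ,
        pow_succ_of_sq z hzz r hrodd, one_smul]
      rfl
    have hyne : Z * x ≠ 1 := by
      intro h1
      have h2 : z • (x : Matrix (Fin d ⊕ Fin d) (Fin d ⊕ Fin d) F) = 1 := by
        rw [← hZx, h1]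
        rfl
      apply hns z
      have h3 : (x : Matrix (Fin d ⊕ Fin d) (Fin d ⊕ Fin d) F) =
          z • (z • (x : Matrix (Fin d ⊕ Fin d) (Fin d ⊕ Fin d) F)) := by
        rw [smul_smul, hzz, one_smul]
      rw [h3, h2]
    obtain ⟨W, hWd, hWts, hWinv⟩ := h (Z * x) hyI hyr hyne
    refine ⟨W, hWd, hWts, ?_⟩
    rw [Submodule.map_le_iff_le_comap] at hWinv ⊢
    intro w hw
    have h1 := hWinv hw
    rw [Submodule.mem_comap, Matrix.toLin'_apply, hZx, Matrix.smul_mulVec] at h1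
    rw [Submodule.mem_comap, Matrix.toLin'_apply]
    have h2 : (x : Matrix (Fin d ⊕ Fin d) (Fin d ⊕ Fin d) F) *ᵥ w =
        z • (z • ((x : Matrix (Fin d ⊕ Fin d) (Fin d ⊕ Fin d) F) *ᵥ w)) := by
      rw [smul_smul, hzz, one_smul]
    rw [h2]
    exact W.smul_mem z h1

end Cfsg.Agent.Lib.Helper53.OTSP
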