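-- Team project OTSP (S5973, helper99), package [WCB] (helper53):
-- `V` of plus type, `V = C ⊥ N`, `N` even-dimensional and not of plus type: the totally singular
-- subspaces of `C` have exactly the dimensions `e` with `2 e + 2 ≤ dim C` (all characteristics).
import Mathlib
import Cfsg.Agent.Lib.Helper99.OTSP.Defs
import Cfsg.Agent.Lib.Helper87.OTSP.WCa
import Cfsg.Agent.Lib.Helper94.OTSP.TsBd
import Cfsg.Agent.Lib.Helper99.Quad

set_option autoImplicit false
open scoped MatrixGroups
open Matrix

namespace Cfsg.Agent.Lib.Helper53.OTSP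

open Cfsg.Agent.Lib.Helper23.OHyp Cfsg.Agent.Lib.Helper99.OTSP Cfsg.Agent.Lib.Helper87.OPar
open Module

universe u

/-- [WCB] -/
theorem pkgWCb : PkgWCb.{u} := by
  intro F _ _ ι _ _ Q hQ hPlus C N hPerp hCN hNotPlusN hNev
  classical
  let b : LinearMap.BilinForm F (ι → F) :=
    LinearMap.mk₂ F (QuadraticMap.polar Q) hQ.polar_bilinear.add_left
      (fun c m n => hQ.polar_bilinear.smul_left c m n) hQ.polar_bilinear.add_right
      (fun c m n => hQ.polar_bilinear.smul_right c m n)
  have hb : ∀ u v, b u v = QuadraticMap.polar Q u v := fun u v => rfl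
  have hkerb : LinearMap.ker b = ⊥ := by
    rw [LinearMap.ker_eq_bot']
    intro v hv
    by_contra hne
    obtain ⟨-, ⟨x, hx⟩⟩ := hQ.nondegenerate v hne
    apply hx
    have h := congrArg (fun f : (ι → F) →ₗ[F] F => f x) hv
    exact h
  have horth : ∀ X : Submodule F (ι → F),
      finrank F X + finrank F (b.orthogonal X) = finrank F (ι → F) :=
    fun X => finrank_add_orth b hkerb X
  have hCNdim : finrank F C + finrank F N = finrank F (ι → F) :=
    Submodule.finrank_add_eq_of_isCompl hCN
  have hQ0 : Q 0 = 0 := by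
    have h := hQ.smul 0 0
    simpa using h
  -- `C` is nondegenerate
  have hNdC : Nd Q C := by
    intro w hw hw0
    obtain ⟨⟨x, hx⟩, -⟩ := hQ.nondegenerate w hw0
    have hx' : x ∈ C ⊔ N := by
      rw [hCN.sup_eq_top]
      trivial
    obtain ⟨c, hc, n, hn, rfl⟩ := Submodule.mem_sup.1 hx'
    have h1 : QuadraticMap.polar Q (c + n) w = QuadraticMap.polar Q c w := by
      rw [hQ.polar_bilinear.add_left, QuadraticMap.polar_comm Q n w, hPerp w hw n hn, add_zero]
    rw [h1] at hx
    exact ⟨⟨c, hc, hx⟩, ⟨c, hc, by rwa [QuadraticMap.polar_comm]⟩⟩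
  have hPlus' := hPlus
  obtain ⟨M₀, -, hM₀ts, hM₀dim⟩ := hPlus'
  rw [finrank_top] at hM₀dim
  refine ⟨?_, ?_⟩
  · -- the upper bound
    intro U hUC hUts
    have h1 : 2 * finrank F U ≤ finrank F C :=
      Cfsg.Agent.Lib.Helper94.OTSP.pkgTsBd F ι Q hQ C U hNdC hUC hUts
    obtain ⟨k, hk⟩ := hNev
    by_contra hlt
    have heq : 2 * finrank F U = finrank F C := by omega
    apply hNotPlusN
    have hPlusC : Plus Q C := ⟨U, hUC, hUts, heq⟩
    have hPerp' : Perp Q N C := fun u hu v hv => by
      rw [QuadraticMap.polar_comm]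
      exact hPerp v hv u hu
    obtain ⟨L, hLN, hLts, hLdim⟩ :=
      Cfsg.Agent.Lib.Helper87.OTSP.pkgWCa F ι Q hQ hPlus N C hPerp' hCN.symm hPlusC k (by omega)
    exact ⟨L, hLN, hLts, by omega⟩
  · -- existence
    have key : ∀ e, 2 * e + 1 ≤ finrank F C →
        ∃ U : Submodule F (ι → F), U ≤ C ∧ TS Q U ∧ finrank F U = e := by
      intro e
      induction e with
      | zero =>
        intro _
        refine ⟨⊥, bot_le, fun w hw => ?_, finrank_bot F (ι → F)⟩
        rw [(Submodule.mem_bot F).1 hw]
        exact hQ0
      | succ e ih =>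
        intro he
        obtain ⟨U, hUC, hUts, hUdim⟩ := ih (by omega)
        have hUorth : U ≤ b.orthogonal U := by
          intro u hu x hx
          show b x u = 0
          rw [hb]
          unfold QuadraticMap.polar
          rw [hUts _ (U.add_mem hx hu), hUts x hx, hUts u hu]
          ring
        have hUX : U ≤ b.orthogonal U ⊓ C := le_inf hUorth hUC
        have hXdim : finrank F C ≤
            finrank F (b.orthogonal U ⊓ C : Submodule F (ι → F)) + finrank F U := by
          have h1 := Submodule.finrank_sup_add_finrank_inf_eq (b.orthogonal U) C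
          have h2 : finrank F (b.orthogonal U ⊔ C : Submodule F (ι → F)) ≤ finrank F (ι → F) :=
            Submodule.finrank_le _
          have h3 := horth U
          omega
        obtain ⟨q, hq⟩ := Submodule.exists_isCompl U
        have hUC'inf : U ⊓ (q ⊓ (b.orthogonal U ⊓ C)) = ⊥ := by
          rw [← inf_assoc, hq.inf_eq_bot, bot_inf_eq]
        have hUC'sup : U ⊔ (q ⊓ (b.orthogonal U ⊓ C)) = b.orthogonal U ⊓ C := by
          rw [← sup_inf_assoc_of_le q hUX, hq.sup_eq_top, top_inf_eq]
        have hC'dim : 3 ≤ finrank F (q ⊓ (b.orthogonal U ⊓ C) : Submodule F (ι → F)) := by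
          have h1 := Submodule.finrank_sup_add_finrank_inf_eq U (q ⊓ (b.orthogonal U ⊓ C))
          rw [hUC'inf, hUC'sup, finrank_bot, add_zero] at h1
          omega
        let Qf : QuadraticForm F (ι → F) :=
          QuadraticMap.ofPolar Q (fun a x => by rw [hQ.smul]; simp [pow_two])
            hQ.polar_bilinear.add_left
            (fun a x y => by rw [hQ.polar_bilinear.smul_left]; rfl)
        obtain ⟨v, hvC', hv0, hQv⟩ :=
          Cfsg.Agent.Lib.Helper99.exists_isotropic Qf (q ⊓ (b.orthogonal U ⊓ C)) hC'dim
        have hQv' : Q v = 0 := hQv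
        have hvX : v ∈ b.orthogonal U ⊓ C := hvC'.2
        have hvU : v ∉ U := by
          intro hvU
          have h : v ∈ U ⊓ (q ⊓ (b.orthogonal U ⊓ C)) := ⟨hvU, hvC'⟩
          rw [hUC'inf] at h
          exact hv0 ((Submodule.mem_bot F).1 h)
        refine ⟨U ⊔ Submodule.span F {v}, ?_, ?_, ?_⟩
        · exact sup_le hUC ((Submodule.span_singleton_le_iff_mem v C).2 hvX.2)
        · intro w hw
          obtain ⟨u, hu, z, hz, rfl⟩ := Submodule.mem_sup.1 hw
          obtain ⟨c, rfl⟩ := Submodule.mem_span_singleton.1 hz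
          have h1 : QuadraticMap.polar Q u (c • v) = 0 := by
            rw [hQ.polar_bilinear.smul_right]
            have h2 : b u v = 0 := hvX.1 u hu
            rw [hb] at h2
            rw [h2, mul_zero]
          unfold QuadraticMap.polar at h1
          rw [hUts u hu, hQ.smul, hQv'] at h1
          linear_combination h1
        · have hinf : U ⊓ Submodule.span F {v} = ⊥ := by
            rw [eq_bot_iff]
            rintro x ⟨hxU, hxv⟩
            obtain ⟨c, rfl⟩ := Submodule.mem_span_singleton.1 hxv
            by_cases hc : c = 0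
            · rw [hc, zero_smul]
              exact Submodule.zero_mem _
            · exfalso
              apply hvU
              have h := U.smul_mem c⁻¹ hxU
              rwa [smul_smul, inv_mul_cancel₀ hc, one_smul] at h
          have h1 := Submodule.finrank_sup_add_finrank_inf_eq U (Submodule.span F {v})
          rw [hinf, finrank_bot, add_zero, finrank_span_singleton hv0] at h1
          omega
    intro e he
    exact key e (by omega)

end Cfsg.Agent.Lib.Helper53.OTSP
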